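import Cfsg.Agent.H45.UniE.Chev
import Cfsg.Agent.H564.U.FTab
import Cfsg.Agent.H958.UE.VtxE8

/-!
# Theorem (U) for `E8(q)`: every element of order prime to `p` fixes a nonzero vector in every nonzero module over
`ZMod p`
-/

set_option autoImplicit false

namespace Cfsg.Agent.H45.UniE

open Cfsg.Lie Cfsg.Agent.H564.U

universe u v

/-- **theorem (U) for `E8(q)`** -/
theorem fixAll_E8 {F : Type v} [Field F] [Fintype F] {p : ℕ} [Fact p.Prime] [CharP F p]
    (x : ↥(chevE8.group F)) (hx : (orderOf x).Coprime p) : H425.KFix.FixAll.{u} p x := by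
  obtain ⟨A, hA, ⟨V⟩⟩ := exists_fdat Cfsg.Agent.Nodes.KindE.isType8 (AlgebraicClosure F) ok_E8
    (H958.UE.VtxE8.vtx _)
  exact fixAll_chev Cfsg.Agent.Nodes.KindE.isType8 A hA V x hx

end Cfsg.Agent.H45.UniE
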